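import Mathlib

set_option autoImplicit false

namespace Cfsg.Agent.Helper15

open Matrix

/-- quadruples of naturals, standing for 2 × 2 matrices -/
abbrev Q4 := ℕ × ℕ × ℕ × ℕ

def qOne : Q4 := (1, 0, 0, 1)

def toM (q : ℕ) (x : Q4) : Matrix (Fin 2) (Fin 2) (ZMod q) :=
  !![(x.1 : ZMod q), (x.2.1 : ZMod q); (x.2.2.1 : ZMod q), (x.2.2.2 : ZMod q)]

def nmul (q : ℕ) (x y : Q4) : Q4 :=
  ((x.1 * y.1 + x.2.1 * y.2.2.1) % q, (x.1 * y.2.1 + x.2.1 * y.2.2.2) % q,
   (x.2.2.1 * y.1 + x.2.2.2 * y.2.2.1) % q, (x.2.2.1 * y.2.1 + x.2.2.2 * y.2.2.2) % q)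

def scal (q c : ℕ) (x : Q4) : Q4 :=
  ((c * x.1) % q, (c * x.2.1) % q, (c * x.2.2.1) % q, (c * x.2.2.2) % q)

/-- `det (x - 1)` modulo `q` -/
def ndet1 (q : ℕ) (x : Q4) : ℕ :=
  ((x.1 + (q - 1)) * (x.2.2.2 + (q - 1)) + (q - 1) * (x.2.1 * x.2.2.1)) % q

def colCode (q : ℕ) (x : Q4) : ℕ := x.1 * q + x.2.2.1

def evalW (q : ℕ) (gens : List Q4) (w : List ℕ) : Q4 :=
  w.foldr (fun i acc => nmul q (gens.getD i qOne) acc) qOne

def maskOf (q z r : ℕ) (L : List Q4) : ℕ :=
  L.foldr (fun x acc => (List.range r).foldr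
    (fun k acc' => acc' ||| (1 <<< colCode q (scal q (z ^ k % q) x))) acc) 0

def checkAll (q : ℕ) (gens ginv : List Q4) (z zi r : ℕ) (words : List (List ℕ)) (L : List Q4)
    (M : ℕ) : Bool :=
  (words.map (evalW q gens) == L) &&
  ((gens ++ ginv).all fun g => L.all fun x => L.contains (nmul q g x)) &&
  (gens.all fun g => ginv.any fun g' => nmul q g g' == qOne) &&
  ((z * zi) % q == 1) && (z ^ r % q == 1) && (decide (0 < r)) &&
  L.contains qOne &&
  (L.all fun x => (List.range r).all fun k =>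
    (x == qOne && k == 0) || ndet1 q (scal q (z ^ k % q) x) != 0) &&
  (maskOf q z r L == M) &&
  ((List.range (q * q)).all fun c => c == 0 || M.testBit c)

theorem toM_nmul (q : ℕ) (x y : Q4) : toM q (nmul q x y) = toM q x * toM q y := by
  unfold toM nmul
  rw [Matrix.mul_fin_two]
  simp only [ZMod.natCast_mod, Nat.cast_add, Nat.cast_mul]

theorem toM_scal (q c : ℕ) (x : Q4) : toM q (scal q c x) = (c : ZMod q) • toM q x := by
  unfold toM scal
  ext i j
  fin_cases i <;> fin_cases j <;> simp [ZMod.natCast_mod]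

theorem toM_one (q : ℕ) : toM q qOne = 1 := by
  unfold toM qOne
  rw [Matrix.one_fin_two]
  simp

theorem cast_pred (q : ℕ) (hq : 1 ≤ q) : ((q - 1 : ℕ) : ZMod q) = -1 := by
  rw [Nat.cast_sub hq]
  simp

theorem det_sub_one (q : ℕ) (hq : 1 ≤ q) (x : Q4) :
    (toM q x - 1).det = (ndet1 q x : ZMod q) := by
  unfold toM ndet1
  rw [Matrix.det_fin_two]
  simp only [ZMod.natCast_mod, Nat.cast_add, Nat.cast_mul, cast_pred q hq]
  simp [Matrix.one_fin_two]
  ring

theorem maskOf_testBit (q z r : ℕ) (L : List Q4) (c : ℕ)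
    (h : (maskOf q z r L).testBit c = true) :
    ∃ x ∈ L, ∃ k < r, colCode q (scal q (z ^ k % q) x) = c := by
  have inner : ∀ (f : ℕ → ℕ) (ks : List ℕ) (acc : ℕ),
      (ks.foldr (fun k acc' => acc' ||| (1 <<< f k)) acc).testBit c = true →
      acc.testBit c = true ∨ ∃ k ∈ ks, f k = c := by
    intro f ks acc
    induction ks with
    | nil => intro h; exact Or.inl h
    | cons k ks ih =>
      intro h
      rw [List.foldr_cons, Nat.testBit_lor, Bool.or_eq_true] at h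
      rcases h with h | h
      · rcases ih h with h' | ⟨k', hk', hk''⟩
        · exact Or.inl h'
        · exact Or.inr ⟨k', List.mem_cons_of_mem _ hk', hk''⟩
      · rw [Nat.one_shiftLeft, Nat.testBit_two_pow] at h
        exact Or.inr ⟨k, List.mem_cons_self, of_decide_eq_true h⟩
  induction L with
  | nil => simp [maskOf] at h
  | cons x L ih =>
    unfold maskOf at h
    rw [List.foldr_cons] at h
    rcases inner _ _ _ h with h' | ⟨k, hk, hk'⟩
    · obtain ⟨x', hx', k, hk, hk'⟩ := ih h'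
      exact ⟨x', List.mem_cons_of_mem _ hx', k, hk, hk'⟩
    · exact ⟨x, List.mem_cons_self, k, List.mem_range.mp hk, hk'⟩

theorem digits_unique (q a b a' b' : ℕ) (hb : b < q) (hb' : b' < q)
    (h : a * q + b = a' * q + b') : a = a' ∧ b = b' := by
  have h1 : (a * q + b) % q = b := by
    rw [add_comm, Nat.add_mul_mod_self_right, Nat.mod_eq_of_lt hb]
  have h2 : (a' * q + b') % q = b' := by
    rw [add_comm, Nat.add_mul_mod_self_right, Nat.mod_eq_of_lt hb']
  have hbb : b = b' := by rw [← h1, ← h2, h]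
  have hq : 0 < q := by omega
  rw [hbb] at h
  exact ⟨Nat.eq_of_mul_eq_mul_right hq (Nat.add_right_cancel h), hbb⟩

theorem checkAll_spec {q : ℕ} {gens ginv : List Q4} {z zi r : ℕ} {words : List (List ℕ)}
    {L : List Q4} {M : ℕ} (h : checkAll q gens ginv z zi r words L M = true) :
    words.map (evalW q gens) = L ∧
    (∀ g ∈ gens ++ ginv, ∀ x ∈ L, nmul q g x ∈ L) ∧
    (∀ g ∈ gens, ∃ g' ∈ ginv, nmul q g g' = qOne) ∧
    (z * zi) % q = 1 ∧ z ^ r % q = 1 ∧ 0 < r ∧ qOne ∈ L ∧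
    (∀ x ∈ L, ∀ k < r, (x = qOne ∧ k = 0) ∨ ndet1 q (scal q (z ^ k % q) x) ≠ 0) ∧
    maskOf q z r L = M ∧ (∀ c < q * q, c = 0 ∨ M.testBit c = true) := by
  unfold checkAll at h
  simp only [Bool.and_eq_true, List.all_eq_true, List.any_eq_true, beq_iff_eq,
    decide_eq_true_eq, Bool.or_eq_true, bne_iff_ne, ne_eq, List.contains_iff_mem,
    List.mem_range] at h
  obtain ⟨⟨⟨⟨⟨⟨⟨⟨⟨h1, h2⟩, h3⟩, h4⟩, h5⟩, h6⟩, h7⟩, h8⟩, h9⟩, h10⟩ := h
  exact ⟨h1, h2, h3, h4, h5, h6, h7, h8, h9, h10⟩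

theorem mat2_regular (q : ℕ) [hq : Fact q.Prime] (S : Set (GL (Fin 2) (ZMod q)))
    (gens ginv : List Q4) (z zi r : ℕ) (words : List (List ℕ)) (L : List Q4) (M : ℕ)
    (hS₁ : ∀ s ∈ S, (∃ g ∈ gens, (s : Matrix (Fin 2) (Fin 2) (ZMod q)) = toM q g) ∨
      (s : Matrix (Fin 2) (Fin 2) (ZMod q)) = (z : ZMod q) • 1)
    (hS₂ : ∀ g ∈ gens, ∃ s ∈ Subgroup.closure S,
      (s : Matrix (Fin 2) (Fin 2) (ZMod q)) = toM q g)
    (hS₃ : ∃ s ∈ Subgroup.closure S, (s : Matrix (Fin 2) (Fin 2) (ZMod q)) = (z : ZMod q) • 1)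
    (hcheck : checkAll q gens ginv z zi r words L M = true) :
    Nat.card (Subgroup.closure S) = q ^ 2 - 1 ∧
    ∀ v w : Fin 2 → ZMod q, v ≠ 0 → w ≠ 0 →
      ∃! h : Subgroup.closure S,
        Matrix.mulVec ((h : GL (Fin 2) (ZMod q)) : Matrix (Fin 2) (Fin 2) (ZMod q)) v = w := by
  obtain ⟨c1, c2, c3, c4a, c4b, c4c, c5, c6, c7a, c7b⟩ := checkAll_spec hcheck
  have hq1 : 1 ≤ q := hq.out.one_lt.le
  have hqpos : 0 < q := hq.out.pos
  set H := Subgroup.closure S with hH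
  have hz1 : (z : ZMod q) * (zi : ZMod q) = 1 := by
    have : ((z * zi % q : ℕ) : ZMod q) = ((1 : ℕ) : ZMod q) := by rw [c4a]
    rw [ZMod.natCast_mod, Nat.cast_mul, Nat.cast_one] at this
    exact this
  have hzr : (z : ZMod q) ^ r = 1 := by
    have : ((z ^ r % q : ℕ) : ZMod q) = ((1 : ℕ) : ZMod q) := by rw [c4b]
    rw [ZMod.natCast_mod, Nat.cast_pow, Nat.cast_one] at this
    exact this
  have hzi : (zi : ZMod q) = (z : ZMod q) ^ (r - 1) := by
    have hr : r = (r - 1) + 1 := by omega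
    calc (zi : ZMod q) = (zi : ZMod q) * (z : ZMod q) ^ r := by rw [hzr, mul_one]
      _ = (zi : ZMod q) * ((z : ZMod q) ^ (r - 1) * (z : ZMod q)) := by
          nth_rewrite 1 [hr]; rw [pow_succ]
      _ = ((z : ZMod q) * (zi : ZMod q)) * (z : ZMod q) ^ (r - 1) := by ring
      _ = (z : ZMod q) ^ (r - 1) := by rw [hz1, one_mul]
  -- Step 1: the shape of the elements of the closure
  have step1 : ∀ h ∈ H, ∃ x ∈ L, ∃ k : ℕ,
      (h : Matrix (Fin 2) (Fin 2) (ZMod q)) = (z : ZMod q) ^ k • toM q x := by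
    intro h hh
    induction hh using Subgroup.closure_induction_left with
    | one => exact ⟨qOne, c5, 0, by simp [toM_one]⟩
    | mul_left s hs y hy ih =>
      obtain ⟨x, hx, k, hxk⟩ := ih
      rcases hS₁ s hs with ⟨g, hg, hsg⟩ | hsz
      · refine ⟨nmul q g x, c2 g (List.mem_append_left _ hg) x hx, k, ?_⟩
        rw [Units.val_mul, hsg, hxk, Matrix.mul_smul, ← toM_nmul]
      · refine ⟨x, hx, k + 1, ?_⟩
        rw [Units.val_mul, hsz, hxk, Matrix.smul_mul, Matrix.one_mul, smul_smul, ← pow_succ']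
    | inv_mul_cancel s hs y hy ih =>
      obtain ⟨x, hx, k, hxk⟩ := ih
      rcases hS₁ s hs with ⟨g, hg, hsg⟩ | hsz
      · obtain ⟨g', hg', hgg'⟩ := c3 g hg
        have hinv : ((s⁻¹ : GL (Fin 2) (ZMod q)) : Matrix (Fin 2) (Fin 2) (ZMod q)) = toM q g' :=
          Units.inv_eq_of_mul_eq_one_right (by rw [hsg, ← toM_nmul, hgg', toM_one])
        refine ⟨nmul q g' x, c2 g' (List.mem_append_right _ hg') x hx, k, ?_⟩
        rw [Units.val_mul, hinv, hxk, Matrix.mul_smul, ← toM_nmul]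
      · have hinv : ((s⁻¹ : GL (Fin 2) (ZMod q)) : Matrix (Fin 2) (Fin 2) (ZMod q)) =
            (zi : ZMod q) • 1 :=
          Units.inv_eq_of_mul_eq_one_right (by
            rw [hsz, Matrix.smul_mul, Matrix.one_mul, smul_smul, hz1, one_smul])
        refine ⟨x, hx, (r - 1) + k, ?_⟩
        rw [Units.val_mul, hinv, hxk, Matrix.smul_mul, Matrix.one_mul, smul_smul, hzi, ← pow_add]
  have step1' : ∀ h ∈ H, ∃ x ∈ L, ∃ k < r,
      (h : Matrix (Fin 2) (Fin 2) (ZMod q)) = toM q (scal q (z ^ k % q) x) := by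
    intro h hh
    obtain ⟨x, hx, k, hxk⟩ := step1 h hh
    refine ⟨x, hx, k % r, Nat.mod_lt _ c4c, ?_⟩
    rw [toM_scal, ZMod.natCast_mod, Nat.cast_pow, hxk, pow_eq_pow_mod k hzr]
  -- Step 2: semiregularity
  have step2 : ∀ h ∈ H, h ≠ 1 → ∀ v : Fin 2 → ZMod q, v ≠ 0 →
      Matrix.mulVec (h : Matrix (Fin 2) (Fin 2) (ZMod q)) v ≠ v := by
    intro h hh h1 v hv hfix
    obtain ⟨x, hx, k, hk, hxk⟩ := step1' h hh
    rcases c6 x hx k hk with ⟨rfl, rfl⟩ | hdet
    · apply h1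
      apply Units.ext
      rw [hxk, toM_scal, ZMod.natCast_mod, Nat.cast_pow, pow_zero, one_smul, toM_one]
      rfl
    · have hdet' : ((h : Matrix (Fin 2) (Fin 2) (ZMod q)) - 1).det ≠ 0 := by
        rw [hxk, det_sub_one q hq1]
        intro h0
        rw [ZMod.natCast_eq_zero_iff] at h0
        apply hdet
        exact Nat.eq_zero_of_dvd_of_lt h0 (Nat.mod_lt _ hqpos)
      apply hv
      apply Matrix.eq_zero_of_mulVec_eq_zero hdet'
      rw [Matrix.sub_mulVec, Matrix.one_mulVec, hfix, sub_self]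
  -- words give elements of the closure
  have stepW : ∀ w : List ℕ, ∃ g ∈ H,
      (g : Matrix (Fin 2) (Fin 2) (ZMod q)) = toM q (evalW q gens w) := by
    intro w
    induction w with
    | nil => exact ⟨1, H.one_mem, by simp [evalW, toM_one]⟩
    | cons i w ih =>
      obtain ⟨g0, hg0, hg0'⟩ := ih
      have hcons : evalW q gens (i :: w) = nmul q (gens.getD i qOne) (evalW q gens w) := rfl
      rw [hcons, toM_nmul, List.getD_eq_getElem?_getD]
      cases hgi : gens[i]? with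
      | none =>
        refine ⟨g0, hg0, ?_⟩
        rw [Option.getD_none, toM_one, Matrix.one_mul, hg0']
      | some g =>
        obtain ⟨s, hs, hs'⟩ := hS₂ g (List.mem_of_getElem? hgi)
        refine ⟨s * g0, H.mul_mem hs hg0, ?_⟩
        rw [Option.getD_some, Units.val_mul, hs', hg0']
  have stepL : ∀ x ∈ L, ∃ g ∈ H, (g : Matrix (Fin 2) (Fin 2) (ZMod q)) = toM q x := by
    intro x hx
    rw [← c1] at hx
    obtain ⟨w, -, rfl⟩ := List.mem_map.mp hx
    exact stepW w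
  -- Step 3: transitivity from the first basis vector
  have step3 : ∀ w : Fin 2 → ZMod q, w ≠ 0 → ∃ h ∈ H,
      Matrix.mulVec (h : Matrix (Fin 2) (Fin 2) (ZMod q)) ![1, 0] = w := by
    intro w hw
    have hw0 : (w 0).val < q := ZMod.val_lt _
    have hw1 : (w 1).val < q := ZMod.val_lt _
    set c := (w 0).val * q + (w 1).val with hc
    have hcq : c < q * q := by
      have h1 : (w 0).val * q + (w 1).val < (w 0).val * q + q := by omega
      have h2 : (w 0).val * q + q = ((w 0).val + 1) * q := by ring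
      have h3 : ((w 0).val + 1) * q ≤ q * q := Nat.mul_le_mul_right q (by omega)
      omega
    have hc0 : c ≠ 0 := by
      intro h0
      apply hw
      have h1 : (w 1).val = 0 := by omega
      have h2 : (w 0).val * q = 0 := by omega
      have h3 : (w 0).val = 0 := by
        rcases Nat.mul_eq_zero.mp h2 with h | h
        · exact h
        · omega
      funext i
      fin_cases i
      · exact (ZMod.val_eq_zero _).mp h3
      · exact (ZMod.val_eq_zero _).mp h1
    have hbit : M.testBit c = true := by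
      rcases c7b c hcq with h | h
      · exact absurd h hc0
      · exact h
    rw [← c7a] at hbit
    obtain ⟨x, hx, k, hk, hcode⟩ := maskOf_testBit q z r L c hbit
    obtain ⟨g, hg, hg'⟩ := stepL x hx
    obtain ⟨sz, hsz, hsz'⟩ := hS₃
    have hdig := digits_unique q _ _ _ _ (Nat.mod_lt _ hqpos) hw1 hcode
    refine ⟨sz ^ k * g, H.mul_mem (H.pow_mem hsz k) hg, ?_⟩
    have hval : ((sz ^ k * g : GL (Fin 2) (ZMod q)) : Matrix (Fin 2) (Fin 2) (ZMod q)) =
        toM q (scal q (z ^ k % q) x) := by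
      rw [Units.val_mul, Units.val_pow_eq_pow_val, hsz', hg', toM_scal, ZMod.natCast_mod,
        Nat.cast_pow, smul_pow, one_pow, Matrix.smul_mul, Matrix.one_mul]
    rw [hval]
    funext i
    fin_cases i
    · have hd1 : (scal q (z ^ k % q) x).1 = (w 0).val := hdig.1
      have : (((scal q (z ^ k % q) x).1 : ℕ) : ZMod q) = w 0 := by
        rw [hd1, ZMod.natCast_zmod_val]
      simp [toM, Matrix.mulVec, dotProduct, this]
    · have hd2 : (scal q (z ^ k % q) x).2.2.1 = (w 1).val := hdig.2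
      have : (((scal q (z ^ k % q) x).2.2.1 : ℕ) : ZMod q) = w 1 := by
        rw [hd2, ZMod.natCast_zmod_val]
      simp [toM, Matrix.mulVec, dotProduct, this]
  -- Step 4: assemble
  have hexu : ∀ v w : Fin 2 → ZMod q, v ≠ 0 → w ≠ 0 →
      ∃! h : H, Matrix.mulVec ((h : GL (Fin 2) (ZMod q)) : Matrix (Fin 2) (Fin 2) (ZMod q)) v = w := by
    intro v w hv hw
    obtain ⟨hv', hv'H, hv'e⟩ := step3 v hv
    obtain ⟨hw', hw'H, hw'e⟩ := step3 w hw
    have hinv : Matrix.mulVec ((hv'⁻¹ : GL (Fin 2) (ZMod q)) : Matrix (Fin 2) (Fin 2) (ZMod q)) v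
        = ![1, 0] := by
      rw [← hv'e, Matrix.mulVec_mulVec, ← Units.val_mul, inv_mul_cancel, Units.val_one,
        Matrix.one_mulVec]
    refine ⟨⟨hw' * hv'⁻¹, H.mul_mem hw'H (H.inv_mem hv'H)⟩, ?_, ?_⟩
    · change Matrix.mulVec ((hw' * hv'⁻¹ : GL (Fin 2) (ZMod q)) :
        Matrix (Fin 2) (Fin 2) (ZMod q)) v = w
      rw [Units.val_mul, ← Matrix.mulVec_mulVec, hinv, hw'e]
    · intro h' hh'
      have hh'' : Matrix.mulVec ((h' : GL (Fin 2) (ZMod q)) : Matrix (Fin 2) (Fin 2) (ZMod q)) v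
          = w := hh'
      by_contra hne
      have hne' : ((hw' * hv'⁻¹)⁻¹ * (h' : GL (Fin 2) (ZMod q))) ≠ 1 := by
        intro h1
        apply hne
        apply Subtype.ext
        exact (inv_mul_eq_one.mp h1).symm
      apply step2 _ (H.mul_mem (H.inv_mem (H.mul_mem hw'H (H.inv_mem hv'H))) h'.2) hne' v hv
      rw [Units.val_mul, ← Matrix.mulVec_mulVec, hh'']
      have : w = Matrix.mulVec ((hw' * hv'⁻¹ : GL (Fin 2) (ZMod q)) :
          Matrix (Fin 2) (Fin 2) (ZMod q)) v := by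
        rw [Units.val_mul, ← Matrix.mulVec_mulVec, hinv, hw'e]
      nth_rewrite 1 [this]
      rw [Matrix.mulVec_mulVec, ← Units.val_mul, inv_mul_cancel, Units.val_one,
        Matrix.one_mulVec]
  refine ⟨?_, hexu⟩
  -- cardinality
  have he1 : (![1, 0] : Fin 2 → ZMod q) ≠ 0 := by
    intro h
    have := congrFun h 0
    simp at this
  have hne : ∀ h : H, Matrix.mulVec ((h : GL (Fin 2) (ZMod q)) : Matrix (Fin 2) (Fin 2) (ZMod q))
      ![1, 0] ≠ 0 := by
    intro h h0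
    apply he1
    have : Matrix.mulVec (((h : GL (Fin 2) (ZMod q))⁻¹ : GL (Fin 2) (ZMod q)) :
        Matrix (Fin 2) (Fin 2) (ZMod q))
        (Matrix.mulVec ((h : GL (Fin 2) (ZMod q)) : Matrix (Fin 2) (Fin 2) (ZMod q)) ![1, 0])
        = ![1, 0] := by
      rw [Matrix.mulVec_mulVec, ← Units.val_mul, inv_mul_cancel, Units.val_one,
        Matrix.one_mulVec]
    rw [← this, h0, Matrix.mulVec_zero]
  let f : H → {w : Fin 2 → ZMod q // w ≠ 0} := fun h => ⟨_, hne h⟩
  have hf : Function.Bijective f := by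
    constructor
    · intro h h' hh'
      have hh'' : Matrix.mulVec ((h : GL (Fin 2) (ZMod q)) : Matrix (Fin 2) (Fin 2) (ZMod q))
          ![1, 0] = Matrix.mulVec ((h' : GL (Fin 2) (ZMod q)) :
          Matrix (Fin 2) (Fin 2) (ZMod q)) ![1, 0] := congrArg Subtype.val hh'
      obtain ⟨h0, -, huniq⟩ := hexu ![1, 0] _ he1 (hne h')
      rw [huniq h hh'', huniq h' rfl]
    · intro ⟨w, hw⟩
      obtain ⟨h0, hh0, -⟩ := hexu ![1, 0] w he1 hw
      exact ⟨h0, Subtype.ext hh0⟩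
  rw [Nat.card_congr (Equiv.ofBijective f hf)]
  have h1 : Nat.card {w : Fin 2 → ZMod q // w ≠ 0} + 1 = q ^ 2 := by
    haveI : NeZero q := ⟨hqpos.ne'⟩
    rw [Nat.card_eq_fintype_card, Fintype.card_subtype_compl, Fintype.card_subtype_eq]
    have h2 : Fintype.card (Fin 2 → ZMod q) = q ^ 2 := by
      rw [Fintype.card_fun, ZMod.card, Fintype.card_fin]
    rw [h2]
    have : 1 ≤ q ^ 2 := Nat.one_le_pow _ _ hqpos
    omega
  omega

end Cfsg.Agent.Helper15
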